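import Mathlib
import Cfsg.Agent.Lib.Helper83.MinSU.Defs
import Cfsg.Agent.Lib.Helper5.SUSimple

set_option autoImplicit false
set_option linter.unusedSectionVars false

namespace Cfsg.Agent.Lib.Helper22.MinSU

open Matrix Cfsg.Agent.Lib.Helper13 Cfsg.Agent.Lib.Helper5 Cfsg.Agent.Lib.Helper57.RootSU
  Cfsg.Agent.Lib.Helper83.MinSU
open scoped commutatorElement

variable {F : Type*} [Field F] [Fintype F] {q m n : ℕ}

section loc

variable {P : Type*} [Group P] [Finite P] (L : ULoc m F q P) (S : Subgroup P)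

/-- `rho 0 a` commutes with `eps l`. -/
theorem cen_z_eps (hF : Fintype.card F = q ^ 2) {a : F} (ha : Val q (0 : Fin m → F) a) (l : Cfsg.SU m F q) :
    L.eps l * L.rho 0 a = L.rho 0 a * L.eps l := by
  rw [L.eps_rho _ _ _ ha, Matrix.mulVec_zero]

/-- `rho 0 a` commutes with `rho y b`. -/
theorem cen_z_rho (hF : Fintype.card F = q ^ 2) {a : F} (ha : Val q (0 : Fin m → F) a) {y : Fin m → F} {b : F}
    (hb : Val q y b) : L.rho y b * L.rho 0 a = L.rho 0 a * L.rho y b := by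
  rw [L.rho_mul _ _ _ _ hb ha, L.rho_mul _ _ _ _ ha hb, hermForm_zero_left, hermForm_zero_right hF,
    add_zero, zero_add, add_comm b a]

/-- the special case `w = 0`. -/
theorem cen_zero (hF : Fintype.card F = q ^ 2) (hm : 3 ≤ m) (h32 : ¬ (m = 3 ∧ q = 2))
    (hB : L.Bb hF S = ⊥) (hS1 : L.S1 hF S = ⊤) (c : P) (sg nu : F) (hsg : sg ≠ 1)
    (hc1 : ∀ l, c * L.eps l = L.eps l * c)
    (hc2 : ∀ w a, Val q w a → c * L.rho w a = L.rho (sg • w) (nu * a) * c)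
    (hc3 : ∀ (w : Fin m → F) (a : F), Val q w a → Val q (sg • w) (nu * a))
    (a₁ : F) (ha₁ : Val q (0 : Fin m → F) a₁) (hs : L.rho 0 a₁ * c ∈ S) :
    ∀ l, L.eps l ∈ S := by
  -- step 1
  have step1 : ∀ l, ∃ b, Val q (0 : Fin m → F) b ∧ L.rho 0 b * L.eps l ∈ S := by
    intro l
    have hl : l ∈ L.S1 hF S := by rw [hS1]; trivial
    obtain ⟨y, b, hb, hg⟩ := hl
    have h1 := S.mul_mem (S.mul_mem (S.mul_mem hs hg) (S.inv_mem hs)) (S.inv_mem hg)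
    have e : L.rho 0 a₁ * c * (L.rho y b * L.eps l) * (L.rho 0 a₁ * c)⁻¹ * (L.rho y b * L.eps l)⁻¹
        = L.rho (sg • y) (nu * b) * (L.rho y b)⁻¹ := by
      have e1 : c * (L.rho y b * L.eps l) = L.rho (sg • y) (nu * b) * L.eps l * c := by
        rw [← mul_assoc, hc2 _ _ hb, mul_assoc, hc1, mul_assoc]
      have e2 : L.rho 0 a₁ * (L.rho (sg • y) (nu * b) * L.eps l)
          = (L.rho (sg • y) (nu * b) * L.eps l) * L.rho 0 a₁ := by
        rw [mul_assoc, cen_z_eps L hF ha₁, ← mul_assoc, ← mul_assoc, cen_z_rho L hF ha₁ (hc3 _ _ hb)]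
      calc L.rho 0 a₁ * c * (L.rho y b * L.eps l) * (L.rho 0 a₁ * c)⁻¹ * (L.rho y b * L.eps l)⁻¹
          = L.rho 0 a₁ * (c * (L.rho y b * L.eps l)) * (L.rho 0 a₁ * c)⁻¹ * (L.rho y b * L.eps l)⁻¹ := by
            group
        _ = (L.rho 0 a₁ * (L.rho (sg • y) (nu * b) * L.eps l)) * c * (L.rho 0 a₁ * c)⁻¹
              * (L.rho y b * L.eps l)⁻¹ := by rw [e1]; group
        _ = _ := by rw [e2]; group
    rw [e, L.rho_inv hF hb, L.rho_mul _ _ _ _ (hc3 _ _ hb) (hb.inv hF)] at h1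
    have hmem : sg • y + -y ∈ L.Bb hF S := ⟨_, (hc3 _ _ hb).add hF (hb.inv hF), h1⟩
    rw [hB, AddSubgroup.mem_bot] at hmem
    have hy : y = 0 := by
      have : (sg - 1) • y = 0 := by rw [sub_smul, one_smul, sub_eq_add_neg]; exact hmem
      exact (smul_eq_zero.1 this).resolve_left (sub_ne_zero.2 hsg)
    subst hy
    exact ⟨b, hb, hg⟩
  -- step 2
  have step2 : ∀ l l' : Cfsg.SU m F q, ⁅l, l'⁆ ∈ S.comap L.eps := by
    intro l l'
    obtain ⟨b, hb, hg⟩ := step1 l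
    obtain ⟨b', hb', hg'⟩ := step1 l'
    have h1 := S.mul_mem (S.mul_mem (S.mul_mem hg hg') (S.inv_mem hg)) (S.inv_mem hg')
    rw [Subgroup.mem_comap, commutatorElement_def, map_mul, map_mul, map_mul, map_inv, map_inv]
    have k1 := cen_z_eps L hF hb l
    have k2 := cen_z_eps L hF hb l'
    have k3 := cen_z_eps L hF hb' l
    have k4 := cen_z_eps L hF hb' l'
    have k5 := cen_z_rho L hF hb hb'
    have e : L.rho 0 b * L.eps l * (L.rho 0 b' * L.eps l') * (L.rho 0 b * L.eps l)⁻¹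
        * (L.rho 0 b' * L.eps l')⁻¹ = L.eps l * L.eps l' * (L.eps l)⁻¹ * (L.eps l')⁻¹ := by
      generalize L.rho 0 b = z at *
      generalize L.rho 0 b' = z' at *
      generalize L.eps l = x at *
      generalize L.eps l' = x' at *
      have c1 : Commute x z := k1
      have c2 : Commute x' z := k2
      have c3 : Commute x z' := k3
      have c4 : Commute x' z' := k4
      have c5 : Commute z' z := k5
      have cw : Commute (x * x' * x⁻¹ * x'⁻¹) z :=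
        ((c1.mul_left c2).mul_left c1.inv_left).mul_left c2.inv_left
      have cw' : Commute (x * x' * x⁻¹ * x'⁻¹) z' :=
        ((c3.mul_left c4).mul_left c3.inv_left).mul_left c4.inv_left
      calc z * x * (z' * x') * (z * x)⁻¹ * (z' * x')⁻¹
          = z * (x * z') * x' * x⁻¹ * (z⁻¹ * x'⁻¹) * z'⁻¹ := by group
        _ = z * (z' * x) * x' * x⁻¹ * (x'⁻¹ * z⁻¹) * z'⁻¹ := by
            rw [c3.eq, (c2.inv_inv).eq]
        _ = z * (z' * (x * x' * x⁻¹ * x'⁻¹)) * z⁻¹ * z'⁻¹ := by group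
        _ = z * ((x * x' * x⁻¹ * x'⁻¹) * z') * z⁻¹ * z'⁻¹ := by rw [cw'.eq]
        _ = (z * (x * x' * x⁻¹ * x'⁻¹)) * z' * z⁻¹ * z'⁻¹ := by group
        _ = ((x * x' * x⁻¹ * x'⁻¹) * z) * z' * z⁻¹ * z'⁻¹ := by rw [cw.eq]
        _ = (x * x' * x⁻¹ * x'⁻¹) * ((z * z') * z⁻¹ * z'⁻¹) := by group
        _ = (x * x' * x⁻¹ * x'⁻¹) * ((z' * z) * z⁻¹ * z'⁻¹) := by rw [c5.eq]
        _ = x * x' * x⁻¹ * x'⁻¹ := by group
    rwa [e] at h1
  have h3 : commutator (Cfsg.SU m F q) ≤ S.comap L.eps := by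
    rw [commutator_def, Subgroup.commutator_le]
    intro l _ l' _
    exact step2 l l'
  rw [su_commutator_eq_top hF hm h32] at h3
  intro l
  exact h3 (Subgroup.mem_top l)

/-- [CEN] -/
theorem cen_trick (hF : Fintype.card F = q ^ 2) (hm : 3 ≤ m) (h32 : ¬ (m = 3 ∧ q = 2))
    (hB : L.Bb hF S = ⊥) (hS1 : L.S1 hF S = ⊤) (c : P) (sg nu : F) (hsg : sg ≠ 1)
    (hc1 : ∀ l, c * L.eps l = L.eps l * c)
    (hc2 : ∀ w a, Val q w a → c * L.rho w a = L.rho (sg • w) (nu * a) * c)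
    (hc3 : ∀ (w : Fin m → F) (a : F), Val q w a → Val q (sg • w) (nu * a))
    (hs : ∃ w a, Val q w a ∧ L.rho w a * c ∈ S) :
    ∃ x : P, ∀ l, x * L.eps l * x⁻¹ ∈ S := by
  obtain ⟨w, a, ha, hwS⟩ := hs
  obtain ⟨w₀, hw₀⟩ : ∃ w₀ : Fin m → F, w₀ = (sg - 1)⁻¹ • w := ⟨_, rfl⟩
  obtain ⟨a₀, ha₀'⟩ := exists_tr hF (-Cfsg.hermForm m F q w₀ w₀) (by
    rw [neg_pow_q hF, hermForm_swap hF])
  have ha₀ : Val q w₀ a₀ := by
    unfold Val
    rw [ha₀']
    ring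
  obtain ⟨x, hx⟩ : ∃ x : P, x = L.rho w₀ a₀ := ⟨_, rfl⟩
  have hxi : x⁻¹ = L.rho (-w₀) (a₀ ^ q) := by rw [hx, L.rho_inv hF ha₀]
  have hai := ha₀.inv hF
  set S' : Subgroup P := S.comap (MulAut.conj x⁻¹).toMonoidHom with hS'
  have hmem : ∀ g, g ∈ S' ↔ x⁻¹ * g * x ∈ S := by
    intro g
    rw [hS', Subgroup.mem_comap]
    simp [MulAut.conj_apply]
  have hB' : L.Bb hF S' = ⊥ := by
    rw [eq_bot_iff]
    rintro y ⟨b, hb, hy⟩
    rw [hmem, hxi, hx, L.rho_mul _ _ _ _ hai hb, L.rho_mul _ _ _ _ (hai.add hF hb) ha₀] at hy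
    have hv := (hai.add hF hb).add hF ha₀
    have e : -w₀ + y + w₀ = y := by abel
    rw [e] at hy hv
    have : y ∈ L.Bb hF S := ⟨_, hv, hy⟩
    rw [hB] at this
    exact this
  have hS1' : L.S1 hF S' = ⊤ := by
    rw [eq_top_iff]
    intro l _
    have hl : l ∈ L.S1 hF S := by rw [hS1]; trivial
    obtain ⟨y, b, hb, hg⟩ := hl
    have e : x * (L.rho y b * L.eps l) * x⁻¹
        = L.rho (w₀ + y + l.1.1 *ᵥ (-w₀)) (a₀ + b - Cfsg.hermForm m F q y w₀ + a₀ ^ q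
            - Cfsg.hermForm m F q (l.1.1 *ᵥ (-w₀)) (w₀ + y)) * L.eps l := by
      rw [← L.rho_mul _ _ _ _ (ha₀.add hF hb) (hai.map l), ← L.rho_mul _ _ _ _ ha₀ hb, hxi, hx,
        mul_assoc (L.rho w₀ a₀ * L.rho y b), ← L.eps_rho _ _ _ hai]
      group
    refine ⟨_, _, (ha₀.add hF hb).add hF (hai.map l), ?_⟩
    rw [← e, hmem]
    have e2 : x⁻¹ * (x * (L.rho y b * L.eps l) * x⁻¹) * x = L.rho y b * L.eps l := by group
    rw [e2]
    exact hg
  have hv1 := (ha₀.add hF ha).add hF (hc3 _ _ hai)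
  have e0 : w₀ + w + sg • (-w₀) = 0 := by
    have h1 : w = (sg - 1) • w₀ := by
      rw [hw₀, smul_smul, mul_inv_cancel₀ (sub_ne_zero.2 hsg), one_smul]
    rw [h1, sub_smul, one_smul, smul_neg]
    abel
  have e1 : x * (L.rho w a * c) * x⁻¹
      = L.rho (w₀ + w + sg • (-w₀)) (a₀ + a - Cfsg.hermForm m F q w w₀ + nu * a₀ ^ q
          - Cfsg.hermForm m F q (sg • (-w₀)) (w₀ + w)) * c := by
    rw [← L.rho_mul _ _ _ _ (ha₀.add hF ha) (hc3 _ _ hai), ← L.rho_mul _ _ _ _ ha₀ ha, hxi, hx,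
      mul_assoc (L.rho w₀ a₀ * L.rho w a), ← hc2 _ _ hai]
    group
  rw [e0] at e1 hv1
  have hs' : L.rho 0 (a₀ + a - Cfsg.hermForm m F q w w₀ + nu * a₀ ^ q
          - Cfsg.hermForm m F q (sg • (-w₀)) (w₀ + w)) * c ∈ S' := by
    rw [← e1, hmem]
    have e2 : x⁻¹ * (x * (L.rho w a * c) * x⁻¹) * x = L.rho w a * c := by group
    rw [e2]
    exact hwS
  have hfin := cen_zero L S' hF hm h32 hB' hS1' c sg nu hsg hc1 hc2 hc3 _ hv1 hs'
  refine ⟨x⁻¹, fun l => ?_⟩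
  rw [inv_inv]
  exact (hmem _).1 (hfin l)

end loc

end Cfsg.Agent.Lib.Helper22.MinSU
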