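import Mathlib
import Cfsg.Agent.Lib.Helper83.MinSU.Defs

set_option autoImplicit false
set_option linter.unusedSectionVars false

namespace Cfsg.Agent.Lib.Helper22.MinSU

open Matrix Cfsg.Agent.Lib.Helper13 Cfsg.Agent.Lib.Helper5 Cfsg.Agent.Lib.Helper57.RootSU
  Cfsg.Agent.Lib.Helper83.MinSU

variable {F : Type*} [Field F] [Fintype F] {q m n : ℕ}

section loc

variable {P : Type*} [Group P] [Finite P] (L : ULoc m F q P) (S : Subgroup P)

/-- [INV] -/
theorem Bb_invariant (hF : Fintype.card F = q ^ 2) (l : Cfsg.SU m F q) (hl : l ∈ L.S1 hF S)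
    (y : Fin m → F) (hy : y ∈ L.Bb hF S) : l.1.1 *ᵥ y ∈ L.Bb hF S := by
  obtain ⟨w, a, hv, hg⟩ := hl
  obtain ⟨b, hb, hyS⟩ := hy
  have h1 := S.mul_mem (S.mul_mem hg hyS) (S.inv_mem hg)
  have e : L.rho w a * L.eps l * L.rho y b * (L.rho w a * L.eps l)⁻¹
      = L.rho w a * L.rho (l.1.1 *ᵥ y) b * (L.rho w a)⁻¹ := by
    rw [mul_assoc (L.rho w a), L.eps_rho _ _ _ hb, _root_.mul_inv_rev]
    group
  rw [e, L.rho_inv hF hv, L.rho_mul _ _ _ _ hv (hb.map l),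
    L.rho_mul _ _ _ _ (hv.add hF (hb.map l)) (hv.inv hF)] at h1
  have hval := (hv.add hF (hb.map l)).add hF (hv.inv hF)
  have e2 : w + l.1.1 *ᵥ y + -w = l.1.1 *ᵥ y := by abel
  rw [e2] at h1 hval
  exact ⟨_, hval, h1⟩

/-- [INV] -/
theorem A_invariant (hF : Fintype.card F = q ^ 2) (t : Fˣ) (ht : t ∈ L.Lam S) (a : F)
    (ha : a ∈ L.A hF S) : (t : F) ^ (q + 1) * a ∈ L.A hF S := by
  obtain ⟨s, hs, rfl⟩ := ht
  obtain ⟨ha1, ha2⟩ := ha
  refine ⟨?_, ?_⟩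
  · have e : (((L.lam s : Fˣ) : F) ^ (q + 1)) ^ q = ((L.lam s : Fˣ) : F) ^ (q + 1) := by
      rw [pow_succ, mul_pow, pow_q_pow_q hF, mul_comm]
    rw [mul_pow, e]
    linear_combination (((L.lam s : Fˣ) : F) ^ (q + 1)) * ha1
  · rw [← L.conj_center s a ha1]
    exact S.mul_mem (S.mul_mem hs ha2) (S.inv_mem hs)

/-- [INV] -/
theorem form_mem_A (hF : Fintype.card F = q ^ 2) (w w' : Fin m → F) (hw : w ∈ L.Bb hF S)
    (hw' : w' ∈ L.Bb hF S) :
    Cfsg.hermForm m F q w w' - Cfsg.hermForm m F q w' w ∈ L.A hF S := by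
  obtain ⟨a, ha, haS⟩ := hw
  obtain ⟨a', ha', haS'⟩ := hw'
  have hsk : (Cfsg.hermForm m F q w w' - Cfsg.hermForm m F q w' w)
      + (Cfsg.hermForm m F q w w' - Cfsg.hermForm m F q w' w) ^ q = 0 := by
    rw [sub_pow_q hF, hermForm_swap hF, hermForm_swap hF]
    ring
  refine ⟨hsk, ?_⟩
  have hX := S.mul_mem haS haS'
  have hY := S.mul_mem haS' haS
  rw [L.rho_mul _ _ _ _ ha ha'] at hX
  rw [L.rho_mul _ _ _ _ ha' ha] at hY
  have hvY := ha'.add hF ha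
  have e := L.rho_mul _ _ _ _ (Val.of_skew (m := m) hF hsk) hvY
  rw [hermForm_zero_right hF, zero_add, sub_zero] at e
  have e2 : Cfsg.hermForm m F q w w' - Cfsg.hermForm m F q w' w + (a' + a - Cfsg.hermForm m F q w w')
      = a + a' - Cfsg.hermForm m F q w' w := by ring
  rw [e2, add_comm w' w] at e
  rw [add_comm w' w] at hY
  have h3 := S.mul_mem hX (S.inv_mem hY)
  rw [← e, mul_inv_cancel_right] at h3
  exact h3

/-- [INV] -/
theorem sq_mem_A (hF : Fintype.card F = q ^ 2) (h2 : (2 : F) = 0) (w : Fin m → F)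
    (hw : w ∈ L.Bb hF S) : Cfsg.hermForm m F q w w ∈ L.A hF S := by
  obtain ⟨a, ha, haS⟩ := hw
  refine ⟨?_, ?_⟩
  · rw [hermForm_swap hF]
    linear_combination (Cfsg.hermForm m F q w w) * h2
  · have h1 := S.mul_mem haS haS
    rw [L.rho_mul _ _ _ _ ha ha] at h1
    have e1 : w + w = 0 := by
      rw [← two_smul F w, h2, zero_smul]
    have e2 : a + a - Cfsg.hermForm m F q w w = Cfsg.hermForm m F q w w := by
      linear_combination (a - Cfsg.hermForm m F q w w) * h2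
    rwa [e1, e2] at h1

end loc

end Cfsg.Agent.Lib.Helper22.MinSU
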