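import Mathlib
import Cfsg.Agent.Lib.Helper83.MinSU.Defs
import Cfsg.Agent.Lib.Helper22.MinSU.INV
import Cfsg.Agent.Lib.Helper22.MinSU.CEN
import Cfsg.Agent.Lib.Helper15.MinSU.DUAL

set_option autoImplicit false
set_option linter.unusedSectionVars false

namespace Cfsg.Agent.Lib.Helper22.MinSU

open Matrix Cfsg.Agent.Lib.Helper13 Cfsg.Agent.Lib.Helper5 Cfsg.Agent.Lib.Helper57.RootSU
  Cfsg.Agent.Lib.Helper83.MinSU

variable {F : Type*} [Field F] [Fintype F] {q m n : ℕ}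

/-- the shape of `big_lemma` (piece BIG). -/
def BigHyp (hF : Fintype.card F = q ^ 2) (m : ℕ) : Prop :=
  ∀ (D : AddSubgroup (Fin m → F)) (w : Fin m → F), w ∈ D → w ≠ 0 →
    (∀ y : Fin m → F, y ≠ 0 → Cfsg.hermForm m F q y y = 0 →
      ∃ c : F, c ≠ 0 ∧ c + c ^ q = 0 ∧ ∀ z ∈ D, (ut hF y c).1.1 *ᵥ z ∈ D) →
    q ^ m < Nat.card D

section loc

variable {P : Type*} [Group P] [Finite P] (L : ULoc m F q P) (S : Subgroup P)

theorem top_Bb_bot (hF : Fintype.card F = q ^ 2) (hbig : BigHyp hF m) (hRF : L.RF S)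
    (hS1 : L.S1 hF S = ⊤) : L.Bb hF S = ⊥ := by
  by_contra hne
  obtain ⟨w, hw, hw0⟩ : ∃ w ∈ L.Bb hF S, w ≠ 0 := by
    by_contra hcon
    push Not at hcon
    exact hne ((AddSubgroup.eq_bot_iff_forall _).2 hcon)
  have h1 : q ^ m < Nat.card (L.Bb hF S) := by
    refine hbig _ w hw hw0 (fun y _ _ => ?_)
    obtain ⟨c, hc0, hc⟩ := exists_skew_q hF
    exact ⟨c, hc0, hc, fun z hz => Bb_invariant L S hF _ (by rw [hS1]; trivial) z hz⟩
  have h2 : Nat.card (L.Bb hF S) ^ 2 ≤ q ^ (2 * m) := by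
    refine Cfsg.Agent.Lib.Helper15.MinSU.iso_lemma hF (L.A hF S) ?_ _
      (fun w hw w' hw' => form_mem_A L S hF w w' hw hw')
    obtain ⟨a, ha, haS⟩ := hRF.1
    exact ⟨a, ha, fun h => haS h.2⟩
  have h3 : (q ^ m) ^ 2 < Nat.card (L.Bb hF S) ^ 2 := Nat.pow_lt_pow_left h1 (by norm_num)
  rw [← pow_mul, mul_comm m 2] at h3
  omega

theorem top_key (hF : Fintype.card F = q ^ 2) (hS1 : L.S1 hF S = ⊤) (c s : P) (hs : s ∈ S)
    (hl : L.lam s = L.lam c) : ∃ w a, Val q w a ∧ L.rho w a * c ∈ S := by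
  have h1 : L.lam (s * c⁻¹) = 1 := by rw [map_mul, map_inv, hl, mul_inv_cancel]
  obtain ⟨w, a, l, hv, e⟩ := L.ker_dec _ h1
  have hl' : l ∈ L.S1 hF S := by rw [hS1]; trivial
  obtain ⟨w', a', hv', hg⟩ := hl'
  have h2 := S.mul_mem (S.inv_mem hg) hs
  have hs' : s = L.rho w a * L.eps l * c := by rw [← e]; group
  have hvi := hv'.inv hF
  have hva := hvi.add hF hv
  have e2 : (L.rho w' a' * L.eps l)⁻¹ * s
      = L.rho (l⁻¹.1.1 *ᵥ (-w' + w)) (a' ^ q + a - Cfsg.hermForm m F q w (-w')) * c := by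
    have e3 := L.eps_rho l⁻¹ _ _ hva
    rw [hs', _root_.mul_inv_rev, L.rho_inv hF hv', ← map_inv]
    calc L.eps l⁻¹ * L.rho (-w') (a' ^ q) * (L.rho w a * L.eps l * c)
        = L.eps l⁻¹ * (L.rho (-w') (a' ^ q) * L.rho w a) * L.eps l * c := by group
      _ = _ := by
        rw [L.rho_mul _ _ _ _ hvi hv, e3, mul_assoc (L.rho _ _), ← map_mul, inv_mul_cancel, map_one,
          mul_one]
  rw [e2] at h2
  exact ⟨_, _, hva.map _, h2⟩

theorem top_contra (hF : Fintype.card F = q ^ 2) (hm : 4 ≤ m) (hRF : L.RF S)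
    (hB : L.Bb hF S = ⊥) (hS1 : L.S1 hF S = ⊤) (t μ : Fˣ) (ht : t ∈ L.Lam S)
    (hμ : μ ^ (q + 1) = 1) (hμm : μ ^ m = t ^ (q - 1)) (hne : (t : F) ^ q * (μ : F) ≠ 1) :
    False := by
  obtain ⟨c, hc, hc1, hc2⟩ := L.cen t μ hμ hμm
  obtain ⟨s, hs, hst⟩ := ht
  have hμ' : (μ : F) * (μ : F) ^ q = 1 := by
    have := congrArg Units.val hμ
    rw [Units.val_pow_eq_pow_val, Units.val_one, pow_succ] at this
    rw [mul_comm]; exact this
  have hc3 : ∀ (w : Fin m → F) (a : F), Val q w a →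
      Val q (((t : F) ^ q * (μ : F)) • w) ((t : F) ^ (q + 1) * a) := by
    intro w a hv
    unfold Val at *
    rw [hermForm_smul_left, hermForm_smul_right, mul_pow, mul_pow, pow_q_pow_q hF, pow_succ, mul_pow,
      pow_q_pow_q hF]
    linear_combination ((t : F) ^ q * (t : F)) * hv
      + ((t : F) ^ q * (t : F) * Cfsg.hermForm m F q w w) * hμ'
  obtain ⟨x, hx⟩ := cen_trick L S hF (by omega) (by omega) hB hS1 c _ _ hne hc1 hc2 hc3
    (top_key L S hF hS1 c s hs (by rw [hst, hc]))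
  obtain ⟨l, hl⟩ := hRF.2 x
  exact hl (hx l)

theorem S1_top_lam_of_big (hF : Fintype.card F = q ^ 2) (hbig : BigHyp hF m) (hm : 4 ≤ m)
    (hRF : L.RF S) (hS1 : L.S1 hF S = ⊤) :
    L.Bb hF S = ⊥ ∧ ∀ t ∈ L.Lam S, t ^ (q + 1) = 1 := by
  classical
  have hB := top_Bb_bot L S hF hbig hRF hS1
  refine ⟨hB, fun t ht => ?_⟩
  by_contra hN
  have hq : 1 ≤ q := by
    rcases Nat.eq_zero_or_pos q with h | h
    · subst h
      have : 0 < Fintype.card F := Fintype.card_pos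
      rw [hF] at this
      norm_num at this
    · exact h
  by_cases hex : ∃ μ : Fˣ, μ ^ (q + 1) = 1 ∧ μ ≠ 1 ∧ μ ^ m = 1
  · obtain ⟨μ, h1, h2, h3⟩ := hex
    refine top_contra L S hF hm hRF hB hS1 1 μ (Subgroup.one_mem _) h1 (by rw [h3, one_pow]) ?_
    rw [Units.val_one, one_pow, one_mul]
    intro h
    exact h2 (Units.ext h)
  · push Not at hex
    let U : Subgroup Fˣ := (powMonoidHom (q + 1) : Fˣ →* Fˣ).ker
    have hU : ∀ x : Fˣ, x ∈ U ↔ x ^ (q + 1) = 1 := fun x => by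
      simp [U, MonoidHom.mem_ker]
    let f : U →* U := powMonoidHom m
    have hinj : Function.Injective f := by
      rw [injective_iff_map_eq_one]
      intro x hx
      by_contra hx1
      have h1 := (hU x.1).1 x.2
      have h3 : (x : Fˣ) ^ m = 1 := by
        have := congrArg Subtype.val hx
        simpa [f] using this
      exact hex x.1 h1 (fun h => hx1 (Subtype.ext h)) h3
    have hsurj : Function.Surjective f := Finite.injective_iff_surjective.1 hinj
    have htU : t ^ (q - 1) ∈ U := by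
      rw [hU, ← pow_mul]
      have e : (q - 1) * (q + 1) = Fintype.card Fˣ := by
        rw [Fintype.card_units, hF]
        obtain ⟨k, rfl⟩ : ∃ k, q = k + 1 := ⟨q - 1, by omega⟩
        simp only [Nat.add_sub_cancel]
        have : (k + 1) ^ 2 = k * (k + 1 + 1) + 1 := by ring
        omega
      rw [e, pow_card_eq_one]
    obtain ⟨μ, hμ⟩ := hsurj ⟨_, htU⟩
    have hμm : (μ : Fˣ) ^ m = t ^ (q - 1) := by
      have := congrArg Subtype.val hμ
      simpa [f] using this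
    have hμ1 := (hU μ.1).1 μ.2
    refine top_contra L S hF hm hRF hB hS1 t μ.1 ht hμ1 hμm ?_
    intro h
    apply hN
    have h2 : (t ^ q * (μ : Fˣ)) = 1 := by
      apply Units.ext
      rw [Units.val_mul, Units.val_pow_eq_pow_val, h, Units.val_one]
    have h3 : (t ^ q * (μ : Fˣ)) ^ (q + 1) = 1 := by rw [h2, one_pow]
    rw [mul_pow, hμ1, mul_one, ← pow_mul] at h3
    -- t^(q(q+1)) = 1, and t^(q^2-1) = 1
    have h4 : t ^ (q ^ 2 - 1) = 1 := by
      have : q ^ 2 - 1 = Fintype.card Fˣ := by rw [Fintype.card_units, hF]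
      rw [this, pow_card_eq_one]
    have e : q * (q + 1) = (q ^ 2 - 1) + (q + 1) := by
      have : 1 ≤ q ^ 2 := Nat.one_le_pow _ _ hq
      have : q * (q + 1) = q ^ 2 + q := by ring
      omega
    rw [e, pow_add, h4, one_mul] at h3
    exact h3

end loc

end Cfsg.Agent.Lib.Helper22.MinSU
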