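import Mathlib
import Cfsg.Agent.Lib.Helper83.MinSU.Defs
import Cfsg.Agent.Lib.Helper22.MinSU.TOP0
import Cfsg.Agent.Lib.Helper15.MinSU.BIG

set_option autoImplicit false
set_option linter.unusedSectionVars false

namespace Cfsg.Agent.Lib.Helper22.MinSU

open Matrix Cfsg.Agent.Lib.Helper13 Cfsg.Agent.Lib.Helper5 Cfsg.Agent.Lib.Helper57.RootSU
  Cfsg.Agent.Lib.Helper83.MinSU

variable {F : Type*} [Field F] [Fintype F] {q m n : ℕ}

section loc

variable {P : Type*} [Group P] [Finite P] (L : ULoc m F q P) (S : Subgroup P)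

/-- [TOP] -/
theorem S1_top_lam (hF : Fintype.card F = q ^ 2) (hm : 4 ≤ m) (hRF : L.RF S)
    (hS1 : L.S1 hF S = ⊤) : L.Bb hF S = ⊥ ∧ ∀ t ∈ L.Lam S, t ^ (q + 1) = 1 :=
  S1_top_lam_of_big L S hF
    (fun D w hw hw0 h => Cfsg.Agent.Lib.Helper15.MinSU.big_lemma hF hm D w hw hw0 h) hm hRF hS1

end loc

end Cfsg.Agent.Lib.Helper22.MinSU
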