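import Mathlib
import Cfsg.Agent.Lib.Helper83.MinSU.DefsO
import Cfsg.Agent.Lib.Helper81.MinSU.LOC

set_option autoImplicit false
set_option linter.unusedSectionVars false

namespace Cfsg.Agent.Lib.Helper22.MinSU.O

open Matrix Cfsg.Agent.Lib.Helper13 Cfsg.Agent.Lib.Helper5 Cfsg.Agent.Lib.Helper57.RootSU
  Cfsg.Agent.Lib.Helper83.MinSU Cfsg.Agent.Lib.Helper81.MinSU

variable {F : Type*} [Field F] [Fintype F] {q m n : ℕ}

/-- [oLOC2] `exists_loc` with the actions of `lam` and `rho` -/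
theorem exists_loc2 (hF : Fintype.card F = q ^ 2) (m : ℕ) (hm : 1 ≤ m) :
    ∃ (e : Fin (m + 2) → F) (L : ULoc m F q (Pe q e)), e ≠ 0 ∧
      Cfsg.hermForm (m + 2) F q e e = 0 ∧
      (∀ a : F, a + a ^ q = 0 → ((L.rho 0 a : Pe q e) : Cfsg.SU (m + 2) F q) = ut hF e a) ∧
      (∀ (l : Cfsg.SU m F q) (x : Fin (m + 2) → F),
        ((L.eps l : Pe q e) : Cfsg.SU (m + 2) F q).1.1 *ᵥ x
          = Fin.cons (x 0) (Fin.cons (x 1) (l.1.1 *ᵥ (fun i => x i.succ.succ)))) ∧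
      (∀ g : Pe q e, (g : Cfsg.SU (m + 2) F q).1.1 *ᵥ e = (L.lam g : F) • e) ∧
      (∀ (w : Fin m → F) (a : F), Val q w a → ∀ x : Fin (m + 2) → F,
        ((L.rho w a : Pe q e) : Cfsg.SU (m + 2) F q).1.1 *ᵥ x
          = x + Cfsg.hermForm (m + 2) F q x e • iota w - Cfsg.hermForm (m + 2) F q x (iota w) • e
            + (a * Cfsg.hermForm (m + 2) F q x e) • e) ∧
      (∀ x : Fin (m + 2) → F, Cfsg.hermForm (m + 2) F q x e = 0 →
        ∃ (w : Fin m → F) (c : F), x = iota w + c • e) ∧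
      (∀ w : Fin m → F, Cfsg.hermForm (m + 2) F q (iota w) e = 0) := by
  obtain ⟨e, e', fr⟩ := exists_frame (m := m) hF
  refine ⟨e, fr.loc hF hm, fr.e_ne_zero, fr.ee, ?_, ?_, ?_, ?_, ?_, ?_⟩
  · intro a ha
    show ((fr.rho hF 0 a : Pe q e) : Cfsg.SU (m + 2) F q) = _
    rw [fr.rho_coe hF 0 a (Val.of_skew hF ha), fr.RR_eq_ut hF a ha]
  · intro l x
    exact EE_mulVec l x
  · intro g
    exact fr.map_e' g
  · intro w a h x
    show ((fr.rho hF w a : Pe q e) : Cfsg.SU (m + 2) F q).1.1 *ᵥ x = _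
    rw [fr.rho_coe hF w a h, fr.RR_mulVec]
  · intro x hx
    refine ⟨tail2 x, Cfsg.hermForm (m + 2) F q x e', ?_⟩
    have := fr.dec x
    rw [hx, zero_smul, add_zero] at this
    exact this
  · intro w
    exact fr.ie hF w

end Cfsg.Agent.Lib.Helper22.MinSU.O
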