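import Mathlib
import Cfsg.Agent.Lib.Helper83.MinSU.DefsO
import Cfsg.Agent.Lib.Helper15.MinSU.IDX
import Cfsg.Agent.Lib.Helper22.MinSU.INV

set_option autoImplicit false
set_option linter.unusedSectionVars false

namespace Cfsg.Agent.Lib.Helper22.MinSU.O

open Matrix Cfsg.Agent.Lib.Helper13 Cfsg.Agent.Lib.Helper5 Cfsg.Agent.Lib.Helper57.RootSU
  Cfsg.Agent.Lib.Helper83.MinSU Cfsg.Agent.Lib.Helper15.MinSU Cfsg.Agent.Lib.Helper22.MinSU

variable {F : Type*} [Field F] [Fintype F] {q m n : ℕ}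

theorem NO_two_le (m : ℕ) : NO 2 (m + 2) ≤ 2 ^ (2 * m + 2) := by
  unfold NO
  apply Nat.div_le_of_le_mul
  have e1 : m + 2 - 1 = m + 1 := by omega
  rw [e1]
  have h1 : (2 : ℕ) ^ (m + 2) = 4 * 2 ^ m := by ring
  have h2 : (2 : ℕ) ^ (m + 1) = 2 * 2 ^ m := by ring
  have h3 : (2 : ℕ) ^ (2 * m + 2) = 4 * (2 ^ m * 2 ^ m) := by ring
  rw [h1, h2, h3]
  have hx : 1 ≤ 2 ^ m := Nat.one_le_two_pow
  generalize 2 ^ m = x at *
  obtain ⟨y, rfl⟩ : ∃ y, x = y + 1 := ⟨x - 1, by omega⟩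
  have e2 : 2 * (y + 1) - 1 = 2 * y + 1 := by omega
  rw [e2]
  norm_num
  nlinarith

section loc2

variable {P : Type*} [Group P] [Finite P] (L : ULoc m F 2 P) (S : Subgroup P)

/-- [oTWO] -/
theorem local_two (hF : Fintype.card F = 2 ^ 2) (hm : 3 ≤ m) (ho : Odd m)
    (hWB : WBo F 2 m) (hA : L.rho 0 1 ∉ S) :
    NO 2 (m + 2) ≤ S.index ∨
      (L.Bb hF S = ⊥ ∧ L.S1 hF S = ⊤ ∧ L.Lam S = ⊤ ∧ S.index = 2 ^ (2 * m + 1)) := by
  have hAbot : L.A hF S = ⊥ := by
    rw [AddSubgroup.eq_bot_iff_forall]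
    intro a ha
    have h1 : a * (1 + a) = 0 := by linear_combination ha.1
    rcases mul_eq_zero.1 h1 with h | h
    · exact h
    · exfalso
      have e : (1 : F) = -a := by linear_combination h
      have := (L.A hF S).neg_mem ha
      rw [← e] at this
      exact hA this.2
  have hidx := index_formula L S hF
  rw [hAbot, AddSubgroup.card_bot, mul_one] at hidx
  have hN := NO_two_le m
  have hcF : Nat.card Fˣ = 3 := by
    rw [Nat.card_units, Nat.card_eq_fintype_card, hF]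
    norm_num
  have hld : Nat.card (L.Lam S) ∣ 3 := by
    rw [← hcF]
    exact Subgroup.card_subgroup_dvd_card _
  have hl : Nat.card (L.Lam S) = 1 ∨ Nat.card (L.Lam S) = 3 :=
    (Nat.dvd_prime Nat.prime_three).1 hld
  have hl3 : Nat.card (L.Lam S) ≤ 3 := by omega
  have hl0 : 0 < Nat.card (L.Lam S) := Nat.card_pos
  have e3 : (2 : ℕ) ^ 2 - 1 = 3 := by norm_num
  rw [e3] at hidx
  have hp : (2 : ℕ) ^ (2 * m + 2) = 2 * 2 ^ (2 * m + 1) := by ring
  by_cases hB : L.Bb hF S = ⊥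
  · rw [hB, AddSubgroup.card_bot, one_mul] at hidx
    have hi0 : (L.S1 hF S).index ≠ 0 := Subgroup.index_ne_zero_of_finite
    by_cases hi : (L.S1 hF S).index = 1
    · rw [hi, mul_one] at hidx
      rcases hl with h | h
      · left
        rw [h, mul_one] at hidx
        rw [hidx]
        omega
      · right
        refine ⟨hB, Subgroup.index_eq_one.1 hi, ?_, ?_⟩
        · exact Subgroup.eq_top_of_card_eq _ (by rw [h, hcF])
        · rw [h] at hidx
          omega
    · left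
      have hi2 : 2 ≤ (L.S1 hF S).index := by omega
      refine hN.trans ?_
      have h1 : 2 ^ (2 * m + 2) * 3 ≤ S.index * 3 := by
        calc 2 ^ (2 * m + 2) * 3 = 2 ^ (2 * m + 1) * 3 * 2 := by rw [hp]; ring
          _ ≤ 2 ^ (2 * m + 1) * 3 * (L.S1 hF S).index := Nat.mul_le_mul_left _ hi2
          _ = S.index * Nat.card (L.Lam S) := hidx.symm
          _ ≤ S.index * 3 := Nat.mul_le_mul_left _ hl3
      exact Nat.le_of_mul_le_mul_right h1 (by norm_num)
  · left
    have hwb := hWB (L.Bb hF S) (L.S1 hF S) hB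
      (by
        intro w hw w' hw'
        have h1 := form_mem_A L S hF w w' hw hw'
        rw [hAbot, AddSubgroup.mem_bot, sub_eq_zero] at h1
        rw [hermForm_swap hF, ← h1])
      (by
        intro h2 w hw
        have h1 := sq_mem_A L S hF h2 w hw
        rwa [hAbot, AddSubgroup.mem_bot] at h1)
      (fun l hl w hw => Bb_invariant L S hF l hl w hw)
    have hb0 : 0 < Nat.card (L.Bb hF S) := Nat.card_pos
    have h1 : NO 2 (m + 2) * (Nat.card (L.Bb hF S) * Nat.card (L.Lam S))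
        ≤ S.index * (Nat.card (L.Bb hF S) * Nat.card (L.Lam S)) := by
      rw [hidx]
      calc NO 2 (m + 2) * (Nat.card (L.Bb hF S) * Nat.card (L.Lam S))
          = (Nat.card (L.Bb hF S) * NO 2 (m + 2)) * Nat.card (L.Lam S) := by ring
        _ ≤ (2 ^ (2 * m + 1) * (L.S1 hF S).index) * 3 := Nat.mul_le_mul hwb hl3
        _ = 2 ^ (2 * m + 1) * 3 * (L.S1 hF S).index := by ring
    exact Nat.le_of_mul_le_mul_right h1 (Nat.mul_pos hb0 hl0)

end loc2

end Cfsg.Agent.Lib.Helper22.MinSU.O
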