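import Mathlib
import Cfsg.Agent.Lib.Helper83.MinSU.DefsO
import Cfsg.Agent.Lib.Helper22.MinSU.oLOC2
import Cfsg.Agent.Lib.Helper22.MinSU.oTWO
import Cfsg.Agent.Lib.Helper57.MinSU.oWB3
import Cfsg.Agent.Lib.Helper84.MinSU.oZT0
import Cfsg.Agent.Lib.Helper92.MinSU.oZT1
import Cfsg.Agent.Lib.Helper92.MinSU.oZT3
import Cfsg.Agent.Lib.Helper92.MinSU.oU1t2
import Cfsg.Agent.Lib.Helper8.MinSU.U1i
import Cfsg.Agent.Lib.Helper81.MinSU.G1
import Cfsg.Agent.Lib.Helper12.MinSU.oE1c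

set_option autoImplicit false
set_option linter.unusedSectionVars false

namespace Cfsg.Agent.Lib.Helper22.MinSU.O

open Matrix Cfsg.Agent.Lib.Helper13 Cfsg.Agent.Lib.Helper5 Cfsg.Agent.Lib.Helper57.RootSU
  Cfsg.Agent.Lib.Helper83.MinSU Cfsg.Agent.Lib.Helper81.MinSU

variable {F : Type*} [Field F] [Fintype F] {q m n : ℕ}

/-- the conjugate subgroup `g⁻¹ K g` -/
def cj (K : Subgroup (Cfsg.SU n F q)) (g : Cfsg.SU n F q) : Subgroup (Cfsg.SU n F q) :=
  K.comap (MulAut.conj g).toMonoidHom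

theorem mem_cj {K : Subgroup (Cfsg.SU n F q)} {g k : Cfsg.SU n F q} :
    k ∈ cj K g ↔ g * k * g⁻¹ ∈ K := Iff.rfl

theorem cj_index (K : Subgroup (Cfsg.SU n F q)) (g : Cfsg.SU n F q) : (cj K g).index = K.index :=
  Subgroup.index_comap_of_surjective _ (MulAut.conj g).surjective

theorem rs_cj (hF : Fintype.card F = q ^ 2) (K : Subgroup (Cfsg.SU n F q)) (g : Cfsg.SU n F q)
    (u : Fin n → F) : u ∈ RS hF (cj K g) ↔ g.1.1 *ᵥ u ∈ RS hF K := by
  constructor
  · rintro ⟨h0, h⟩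
    refine ⟨by rw [SU_preserves, h0], fun c hc => ?_⟩
    rw [← ut_conj hF g h0 hc]
    exact h c hc
  · rintro ⟨h0, h⟩
    rw [SU_preserves] at h0
    refine ⟨h0, fun c hc => ?_⟩
    rw [mem_cj, ut_conj hF g h0 hc]
    exact h c hc

theorem F4_cases (hF : Fintype.card F = 2 ^ 2) (om t : F) (hom0 : om ≠ 0) (hom1 : om ≠ 1)
    (ht : t ≠ 0) : t = 1 ∨ t = om ∨ t = om ^ 2 := by
  have h3 : ∀ s : F, s ≠ 0 → s ^ 3 = 1 := fun s hs => by
    have := FiniteField.pow_card_sub_one_eq_one s hs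
    rwa [hF] at this
  have ho : om ^ 2 + om + 1 = 0 := by
    have : (om - 1) * (om ^ 2 + om + 1) = 0 := by linear_combination h3 om hom0
    exact (mul_eq_zero.1 this).resolve_left (sub_ne_zero.2 hom1)
  have : (t - 1) * ((t - om) * (t - om ^ 2)) = 0 := by
    linear_combination (h3 t ht) + (-t ^ 2 + om * t - (om - 1)) * ho
  rcases mul_eq_zero.1 this with h | h
  · exact Or.inl (sub_eq_zero.1 h)
  · rcases mul_eq_zero.1 h with h | h
    · exact Or.inr (Or.inl (sub_eq_zero.1 h))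
    · exact Or.inr (Or.inr (sub_eq_zero.1 h))

theorem E1b_local (hF : Fintype.card F = 2 ^ 2) (e : Fin (3 + 2) → F) (L : ULoc 3 F 2 (Pe 2 e))
    (hrho : ∀ a : F, a + a ^ 2 = 0 → ((L.rho 0 a : Pe 2 e) : Cfsg.SU (3 + 2) F 2) = ut hF e a)
    (K' : Subgroup (Cfsg.SU (3 + 2) F 2)) (hK' : K'.index < 165) (hne : ut hF e 1 ∉ K') :
    L.rho 0 1 ∉ K'.subgroupOf (Pe 2 e) ∧ L.Bb hF (K'.subgroupOf (Pe 2 e)) = ⊥ ∧
      L.S1 hF (K'.subgroupOf (Pe 2 e)) = ⊤ := by
  have : Finite (Cfsg.SU (3 + 2) F 2) := Subtype.finite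
  have hA : L.rho 0 1 ∉ K'.subgroupOf (Pe 2 e) := by
    rw [Subgroup.mem_subgroupOf, hrho 1 (Cfsg.Agent.Lib.Helper92.MinSU.O.one_skew hF)]
    exact hne
  refine ⟨hA, ?_⟩
  have hidx : (K'.subgroupOf (Pe 2 e)).index ≤ K'.index := by
    have h1 := Subgroup.relIndex_le_of_le_right (H := K') (le_top : Pe 2 e ≤ ⊤) (by
      rw [Subgroup.relIndex_top_right]
      exact Subgroup.index_ne_zero_of_finite)
    rw [Subgroup.relIndex_top_right] at h1
    exact h1
  rcases local_two L (K'.subgroupOf (Pe 2 e)) hF (by norm_num) (by decide)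
    (Cfsg.Agent.Lib.Helper57.MinSU.O.wb3 hF) hA with h | h
  · exfalso
    have e1 : NO 2 (3 + 2) = 165 := by
      unfold NO
      norm_num
    omega
  · exact ⟨h.1, h.2.1⟩

theorem bad_perp' (hF : Fintype.card F = 2 ^ 2) (K : Subgroup (Cfsg.SU (3 + 2) F 2))
    (hK : K.index < 165) (v : Fin (3 + 2) → F) (hv : v ≠ 0)
    (hvv : Cfsg.hermForm (3 + 2) F 2 v v = 0) (hvK : ut hF v 1 ∉ K) :
    Nat.card {u : Fin (3 + 2) → F // u ≠ 0 ∧ u ∈ RS hF K ∧ Cfsg.hermForm (3 + 2) F 2 u v = 0}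
      = 27 := by
  have : Finite (Cfsg.SU (3 + 2) F 2) := Subtype.finite
  obtain ⟨e, L, he0, hee, hrho0, heps, hlam, hrho, hperp, hie⟩ := exists_loc2 hF 3 (by norm_num)
  obtain ⟨g, hg⟩ := exists_su_map hF (by norm_num) e v he0 hv hee hvv
  have hs1 := Cfsg.Agent.Lib.Helper92.MinSU.O.one_skew hF
  have hgen : ∀ g : Cfsg.SU (3 + 2) F 2, g.1.1 *ᵥ e = v → ut hF e 1 ∉ cj K g := by
    intro g hg h
    rw [mem_cj, ut_conj hF g hee hs1, hg] at h
    exact hvK h
  obtain ⟨hA, hB, hS1⟩ := E1b_local hF e L hrho0 (cj K g) (by rw [cj_index]; exact hK) (hgen g hg)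
  obtain ⟨z, hz3, hzfix, hzc, om, hom0, hom1, hzom⟩ := Cfsg.Agent.Lib.Helper84.MinSU.O.exists_z3 hF
  obtain ⟨x, hx1, hx⟩ := Cfsg.Agent.Lib.Helper92.MinSU.O.ztrick L _ hF hA hB hS1 z hz3 hzfix
  obtain ⟨g', hg'def⟩ : ∃ g' : Cfsg.SU (3 + 2) F 2, g' = g * (x : Cfsg.SU (3 + 2) F 2) := ⟨_, rfl⟩
  have hxe : (x : Cfsg.SU (3 + 2) F 2).1.1 *ᵥ e = e := by
    rw [hlam x, hx1]
    simp
  have hg' : g'.1.1 *ᵥ e = v := by rw [hg'def, SU_mul_mulVec, hxe, hg]
  obtain ⟨K', hK'def⟩ : ∃ K' : Subgroup (Cfsg.SU (3 + 2) F 2), K' = cj K g' := ⟨_, rfl⟩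
  have hmem : ∀ s : Pe 2 e, s ∈ K'.subgroupOf (Pe 2 e) ↔
      x * s * x⁻¹ ∈ (cj K g).subgroupOf (Pe 2 e) := by
    intro s
    rw [Subgroup.mem_subgroupOf, Subgroup.mem_subgroupOf, hK'def, mem_cj, mem_cj, hg'def]
    have e1 : g * (x : Cfsg.SU (3 + 2) F 2) * s * (g * (x : Cfsg.SU (3 + 2) F 2))⁻¹
        = g * ((x * s * x⁻¹ : Pe 2 e) : Cfsg.SU (3 + 2) F 2) * g⁻¹ := by
      push_cast
      group
    rw [e1]
  have hneK' : ut hF e 1 ∉ K' := by rw [hK'def]; exact hgen g' hg'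
  have hA' : L.rho 0 1 ∉ K'.subgroupOf (Pe 2 e) := by
    rw [Subgroup.mem_subgroupOf, hrho0 1 hs1]
    exact hneK'
  have hl : ∀ l, L.eps l ∈ K'.subgroupOf (Pe 2 e) ∨ L.rho 0 1 * L.eps l ∈ K'.subgroupOf (Pe 2 e) := by
    intro l
    rcases hx l (hzc l) with h | h
    · exact Or.inl ((hmem _).2 h)
    · exact Or.inr ((hmem _).2 h)
  have hkill := Cfsg.Agent.Lib.Helper92.MinSU.O.kill_b3 (K'.subgroupOf (Pe 2 e)) hF L hA' hl
  have hio : ∀ w : Fin 3 → F, Cfsg.hermForm 3 F 2 w w = 0 → iota w ∈ RS hF K' := by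
    intro w hw
    have hw' : Cfsg.hermForm (3 + 2) F 2 (iota w) (iota w) = 0 := by rw [herm_iota_iota hF, hw]
    refine ⟨hw', fun c hc => ?_⟩
    rcases Cfsg.Agent.Lib.Helper92.MinSU.O.skew_cases hF hc with rfl | rfl
    · rw [ut_zero hF hw']
      exact K'.one_mem
    · have h1 := hkill w hw
      rw [Subgroup.mem_subgroupOf] at h1
      rwa [eq_ut_iota hF w 1 hw hs1 _ (heps _)] at h1
  have heK : e ∉ RS hF K' := fun h => hneK' (h.2 1 hs1)
  have heps_i : ∀ (l : Cfsg.SU 3 F 2) (w' : Fin 3 → F),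
      ((L.eps l : Pe 2 e) : Cfsg.SU (3 + 2) F 2).1.1 *ᵥ iota w' = iota (l.1.1 *ᵥ w') := by
    intro l w'
    rw [heps]
    simp [iota]
  have heps_e : ∀ l : Cfsg.SU 3 F 2, ((L.eps l : Pe 2 e) : Cfsg.SU (3 + 2) F 2).1.1 *ᵥ e = e := by
    intro l
    rw [hlam, L.lam_eps]
    simp
  have claim : ∀ u : Fin (3 + 2) → F, u ≠ 0 → u ∈ RS hF K' → Cfsg.hermForm (3 + 2) F 2 u e = 0 →
      ∃ w : Fin 3 → F, w ≠ 0 ∧ Cfsg.hermForm 3 F 2 w w = 0 ∧ u = iota w := by
    intro u hu0 hu hue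
    obtain ⟨w, c, rfl⟩ := hperp u hue
    have hei : Cfsg.hermForm (3 + 2) F 2 e (iota w) = 0 := hermForm_eq_zero_comm hF (hie w)
    have hww : Cfsg.hermForm 3 F 2 w w = 0 := by
      have := hu.1
      simp only [hermForm_add_left, hermForm_add_right hF, hermForm_smul_left, hermForm_smul_right,
        hee, hei, hie w, herm_iota_iota hF, mul_zero, add_zero] at this
      exact this
    by_cases hc : c = 0
    · subst hc
      rw [zero_smul, add_zero] at hu0 ⊢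
      refine ⟨w, ?_, hww, rfl⟩
      rintro rfl
      exact hu0 iota_zero
    · exfalso
      by_cases hw0 : w = 0
      · subst hw0
        rw [iota_zero, zero_add] at hu
        have := (Cfsg.Agent.Lib.Helper8.MinSU.rs_inv hF K' _ hu).2 c⁻¹
        rw [smul_smul, inv_mul_cancel₀ hc, one_smul] at this
        exact heK this
      · obtain ⟨y, hyK, hy⟩ : ∃ y ∈ K', ∀ c' : F,
            y.1.1 *ᵥ (iota w + c' • e) = iota (om • w) + c' • e := by
          rcases hl z with h | h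
          · refine ⟨_, Subgroup.mem_subgroupOf.1 h, fun c' => ?_⟩
            rw [mulVec_add, mulVec_smul, heps_i, heps_e, hzom]
          · refine ⟨_, Subgroup.mem_subgroupOf.1 h, fun c' => ?_⟩
            have e1 : ((L.rho 0 1 * L.eps z : Pe 2 e) : Cfsg.SU (3 + 2) F 2)
                = ut hF e 1 * ((L.eps z : Pe 2 e) : Cfsg.SU (3 + 2) F 2) := by
              rw [← hrho0 1 hs1]
              rfl
            rw [e1, SU_mul_mulVec, mulVec_add, mulVec_smul, heps_i, heps_e, hzom,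
              ut_mulVec hF hee hs1, hermForm_add_left, hermForm_smul_left, hee, hie]
            simp
        have hstep : ∀ c' : F, iota w + c' • e ∈ RS hF K' → iota w + (om⁻¹ * c') • e ∈ RS hF K' := by
          intro c' h
          have h1 := (Cfsg.Agent.Lib.Helper8.MinSU.rs_inv hF K' _ h).1 y hyK
          rw [hy] at h1
          have h2 := (Cfsg.Agent.Lib.Helper8.MinSU.rs_inv hF K' _ h1).2 om⁻¹
          rw [smul_add, iota_smul, smul_smul, smul_smul, inv_mul_cancel₀ hom0, one_smul] at h2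
          exact h2
        have hall : ∀ c' : F, c' ≠ 0 → iota w + c' • e ∈ RS hF K' := by
          intro c' hc'
          have hi0 : om⁻¹ ≠ 0 := inv_ne_zero hom0
          have hi1 : om⁻¹ ≠ 1 := by
            intro h
            exact hom1 (inv_eq_one.1 h)
          rcases F4_cases hF om⁻¹ (c' / c) hi0 hi1 (div_ne_zero hc' hc) with h | h | h
          · have : c' = c := by
              field_simp at h
              exact h
            rw [this]
            exact hu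
          · have : c' = om⁻¹ * c := by
              rw [← h]
              field_simp
            rw [this]
            exact hstep _ hu
          · have : c' = om⁻¹ * (om⁻¹ * c) := by
              rw [← mul_assoc, ← pow_two, ← h]
              field_simp
            rw [this]
            exact hstep _ (hstep _ hu)
        apply heK
        refine Cfsg.Agent.Lib.Helper92.MinSU.O.rs_five hF K' e (iota w) hee hei (hio w hww) ?_
        intro mu hmu
        have h1 := (Cfsg.Agent.Lib.Helper8.MinSU.rs_inv hF K' _ (hall mu⁻¹ (inv_ne_zero hmu))).2 mu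
        rw [smul_add, smul_smul, mul_inv_cancel₀ hmu, one_smul, add_comm (mu • iota w) e] at h1
        exact h1
  rw [← Cfsg.Agent.Lib.Helper12.MinSU.O.card_iso3_E1c hF]
  symm
  let φ : {w : Fin 3 → F // w ≠ 0 ∧ Cfsg.hermForm 3 F 2 w w = 0} →
      {u : Fin (3 + 2) → F // u ≠ 0 ∧ u ∈ RS hF K ∧ Cfsg.hermForm (3 + 2) F 2 u v = 0} :=
    fun w => ⟨g'.1.1 *ᵥ iota w.1, by
      refine ⟨?_, ?_, ?_⟩
      · apply Cfsg.Agent.Lib.Helper5.su_mulVec_ne_zero
        intro h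
        apply w.2.1
        apply iota_injective
        rw [h, iota_zero]
      · have := hio w.1 w.2.2
        rw [hK'def] at this
        exact (rs_cj hF K g' _).1 this
      · rw [← hg', SU_preserves]
        exact hie w.1⟩
  apply Nat.card_eq_of_bijective φ
  constructor
  · intro w w' h
    have h1 : g'.1.1 *ᵥ iota w.1 = g'.1.1 *ᵥ iota w'.1 := congrArg Subtype.val h
    apply Subtype.ext
    apply iota_injective
    rw [← SU_inv_mulVec_mulVec g' (iota w.1), h1, SU_inv_mulVec_mulVec]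
  · rintro ⟨u, hu0, huK, huv⟩
    have e1 : g'.1.1 *ᵥ ((g'⁻¹).1.1 *ᵥ u) = u := SU_mulVec_inv_mulVec g' u
    obtain ⟨w, hw0, hww, hw⟩ := claim ((g'⁻¹).1.1 *ᵥ u)
      (Cfsg.Agent.Lib.Helper5.su_mulVec_ne_zero _ hu0)
      (by rw [hK'def, rs_cj, e1]; exact huK)
      (by rw [← SU_preserves g', e1, hg']; exact huv)
    refine ⟨⟨w, hw0, hww⟩, Subtype.ext ?_⟩
    change g'.1.1 *ᵥ iota w = u
    rw [← hw, e1]

/-- [oE1b] -/
theorem bad_perp (hF : Fintype.card F = 2 ^ 2) (K : Subgroup (Cfsg.SU 5 F 2))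
    (hK : K.index < 165) (v : Fin 5 → F) (hv : v ≠ 0) (hvv : Cfsg.hermForm 5 F 2 v v = 0)
    (hvK : ut hF v 1 ∉ K) :
    Nat.card {u : Fin 5 → F // u ≠ 0 ∧ u ∈ RS hF K ∧ Cfsg.hermForm 5 F 2 u v = 0} = 27 :=
  bad_perp' hF K hK v hv hvv hvK

end Cfsg.Agent.Lib.Helper22.MinSU.O
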