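import Mathlib
import Cfsg.Agent.Lib.Helper83.MinSU.DefsO
import Cfsg.Agent.Lib.Helper5.SUParabolic
import Cfsg.Agent.Lib.Helper5.SUOrder
import Cfsg.Agent.Lib.Helper5.GUOrder
import Cfsg.Agent.Lib.Helper5.SUTorus
import Cfsg.Agent.Lib.Helper54.MinSU.RAD4
import Cfsg.Agent.Lib.Helper81.MinSU.LocB

set_option autoImplicit false
set_option linter.unusedSectionVars false

namespace Cfsg.Agent.Lib.Helper22.MinSU.O

open Matrix Module Cfsg.Agent.Lib.Helper13 Cfsg.Agent.Lib.Helper5 Cfsg.Agent.Lib.Helper57.RootSU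
  Cfsg.Agent.Lib.Helper83.MinSU Cfsg.Agent.Lib.Helper54.MinSU Cfsg.Agent.Lib.Helper81.MinSU

variable {F : Type*} [Field F] [Fintype F] {q m n : ℕ}

local notation "H3" => Cfsg.hermForm 3 F q

/-- two orthogonal isotropic vectors of the 3-dimensional unitary space are proportional -/
theorem ti_pair (hF : Fintype.card F = q ^ 2) (x y : Fin 3 → F) (hx0 : x ≠ 0) (hxx : H3 x x = 0)
    (hxy : H3 x y = 0) (hyy : H3 y y = 0) : ∃ c : F, y = c • x := by
  have hq := two_le_of_card_sq hF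
  by_contra hne
  push Not at hne
  have hyx : H3 y x = 0 := hermForm_eq_zero_comm hF hxy
  set W : Submodule F (Fin 3 → F) := Submodule.span F {x, y} with hW
  have h1 := card_le_of_Fq hF W.toAddSubgroup (fun w hw w' hw' => by
    obtain ⟨a, b, rfl⟩ := Submodule.mem_span_pair.1 hw
    obtain ⟨a', b', rfl⟩ := Submodule.mem_span_pair.1 hw'
    simp only [hermForm_add_left, hermForm_add_right hF, hermForm_smul_left, hermForm_smul_right,
      hxx, hxy, hyx, hyy, mul_zero, add_zero]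
    exact zero_pow (by omega))
  have h2 : Nat.card (F × F) ≤ Nat.card W.toAddSubgroup := by
    refine Nat.card_le_card_of_injective
      (fun p : F × F => (⟨p.1 • x + p.2 • y, Submodule.mem_span_pair.2 ⟨p.1, p.2, rfl⟩⟩ :
        W.toAddSubgroup)) ?_
    rintro ⟨a, b⟩ ⟨a', b'⟩ h
    have h' : a • x + b • y = a' • x + b' • y := congrArg Subtype.val h
    have h3 : (b - b') • y = (a' - a) • x := by
      rw [sub_smul, sub_smul]
      have : b • y - b' • y = (a • x + b • y) - a • x - b' • y := by abel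
      rw [this, h']
      abel
    have hb : b = b' := by
      by_contra hb
      have hb' : b - b' ≠ 0 := sub_ne_zero.2 hb
      apply hne ((b - b')⁻¹ * (a' - a))
      rw [mul_smul, ← h3, smul_smul, inv_mul_cancel₀ hb', one_smul]
    subst hb
    rw [sub_self, zero_smul] at h3
    have ha : a' - a = 0 := (smul_eq_zero.1 h3.symm).resolve_right hx0
    have : a = a' := (sub_eq_zero.1 ha).symm
    rw [this]
  rw [Nat.card_prod, Nat.card_eq_fintype_card, hF] at h2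
  have h3 : q ^ 3 < q ^ 2 * q ^ 2 := by
    rw [← pow_add]
    exact Nat.pow_lt_pow_right (by omega) (by norm_num)
  omega

theorem index_Pe3 (hF : Fintype.card F = q ^ 2) (e : Fin 3 → F) (he0 : e ≠ 0)
    (hee : H3 e e = 0) : (Pe q e).index = q ^ 3 + 1 := by
  have hq := two_le_of_card_sq hF
  have h1 := card_su_parabolic hF 1 (by omega : 1 ≤ 3) (by omega) (Submodule.span F {e})
    (finrank_span_singleton he0) (by
      intro u hu v hv
      obtain ⟨a, rfl⟩ := Submodule.mem_span_singleton.mp hu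
      obtain ⟨b, rfl⟩ := Submodule.mem_span_singleton.mp hv
      rw [hermForm_smul_left, hermForm_smul_right, hee]
      ring)
  have h2 := card_SU_mul (n := 3) hF (by omega)
  rw [card_GU hF 3] at h2
  have h3 := (Pe q e).index_mul_card
  have h1' : (q + 1) * Nat.card (Pe q e) = q ^ 3 * (q ^ 2 - 1) * (q + 1) := by
    have : (q + 1) * Nat.card (Pe q e) = _ := h1
    rw [this]
    simp
  have h2' : (q + 1) * Nat.card (Cfsg.SU 3 F q) = q ^ 3 * ((q + 1) * (q ^ 2 - 1) * (q ^ 3 + 1)) := by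
    rw [h2]
    simp [Finset.prod_range_succ, Nat.even_add_one]
  have hc : 0 < q ^ 2 - 1 := by
    have : 2 ^ 2 ≤ q ^ 2 := Nat.pow_le_pow_left hq 2
    omega
  have key : (Pe q e).index * (q ^ 3 * (q ^ 2 - 1) * (q + 1))
      = (q ^ 3 + 1) * (q ^ 3 * (q ^ 2 - 1) * (q + 1)) := by
    calc (Pe q e).index * (q ^ 3 * (q ^ 2 - 1) * (q + 1))
        = (Pe q e).index * ((q + 1) * Nat.card (Pe q e)) := by rw [h1']
      _ = (q + 1) * ((Pe q e).index * Nat.card (Pe q e)) := by ring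
      _ = (q + 1) * Nat.card (Cfsg.SU 3 F q) := by rw [h3]
      _ = _ := by rw [h2']; ring
  exact Nat.eq_of_mul_eq_mul_right (by positivity) key

theorem NO_five_le (hq : 2 ≤ q) : NO q 5 ≤ (q ^ 5 + 1) * (q ^ 2 + 1) := by
  unfold NO
  apply Nat.div_le_of_le_mul
  obtain ⟨u, hu⟩ : ∃ u, q ^ 2 = u + 1 := ⟨q ^ 2 - 1, by have : 0 < q ^ 2 := by positivity
                                                        omega⟩
  have e2 : q ^ 2 - 1 = u := by omega
  have e4 : q ^ (5 - 1) - 1 = u * (q ^ 2 + 1) := by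
    have : q ^ (5 - 1) = u * (q ^ 2 + 1) + 1 := by
      have e4' : q ^ (5 - 1) = (u + 1) ^ 2 := by rw [← hu]; ring
      rw [e4', hu]
      ring
    omega
  rw [e2, e4]
  apply le_of_eq
  ring

/-- an element `a` with `a^q a⁻¹ ∉ F_q` -/
theorem exists_tor_par (hF : Fintype.card F = q ^ 2) :
    ∃ a : F, a ≠ 0 ∧ (a ^ q * a⁻¹) ^ q ≠ a ^ q * a⁻¹ := by
  classical
  have hq := two_le_of_card_sq hF
  obtain ⟨γ, hγ⟩ := IsCyclic.exists_monoid_generator (α := Fˣ)
  have ho : orderOf γ = q ^ 2 - 1 := by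
    rw [orderOf_eq_card_of_forall_mem_powers hγ, Nat.card_units, Nat.card_eq_fintype_card, hF]
  refine ⟨γ, γ.ne_zero, fun h => ?_⟩
  have ha : (γ : F) ≠ 0 := γ.ne_zero
  rw [mul_pow, pow_q_pow_q hF, inv_pow] at h
  have haq : (γ : F) ^ q ≠ 0 := pow_ne_zero _ ha
  have h1 : (γ : F) * γ = (γ : F) ^ q * (γ : F) ^ q := by
    field_simp at h
    linear_combination h
  have h2 : (γ : F) ^ (2 * q - 2) = 1 := by
    have e : (γ : F) ^ (2 * q - 2) * ((γ : F) * γ) = 1 * ((γ : F) * γ) := by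
      rw [one_mul, ← pow_two, ← pow_add, show 2 * q - 2 + 2 = q + q by omega, pow_add, pow_two]
      exact h1.symm
    exact mul_right_cancel₀ (mul_ne_zero ha ha) e
  have h3 : γ ^ (2 * q - 2) = 1 := by
    apply Units.ext
    rw [Units.val_pow_eq_pow_val, h2, Units.val_one]
  have h4 := orderOf_dvd_of_pow_eq_one h3
  rw [ho] at h4
  have h5 := Nat.le_of_dvd (by omega) h4
  obtain ⟨k, rfl⟩ : ∃ k, q = k + 2 := ⟨q - 2, by omega⟩
  have e1 : (k + 2) ^ 2 = k * k + 4 * k + 4 := by ring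
  rw [e1] at h5
  have : 0 ≤ k * k := Nat.zero_le _
  omega

theorem arith_RAD3a (hq : 2 ≤ q) :
    q ^ 2 * ((q ^ 5 + 1) * (q ^ 2 + 1)) ≤ q ^ 7 * (q ^ 3 + 1) := by
  have e1 : q ^ 2 * ((q ^ 5 + 1) * (q ^ 2 + 1)) = q ^ 9 + q ^ 7 + q ^ 4 + q ^ 2 := by ring
  have e2 : q ^ 7 * (q ^ 3 + 1) = q ^ 10 + q ^ 7 := by ring
  rw [e1, e2]
  have h1 : 2 * q ^ 9 ≤ q ^ 10 := by
    have : q ^ 10 = q * q ^ 9 := by ring
    rw [this]
    exact Nat.mul_le_mul_right _ hq
  have h2 : q ^ 4 + q ^ 2 ≤ q ^ 9 := by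
    have a1 : q ^ 4 * 2 ≤ q ^ 9 := by
      have : q ^ 9 = q ^ 4 * q ^ 5 := by ring
      rw [this]
      exact Nat.mul_le_mul_left _ (by
        calc 2 ≤ q := hq
          _ = q ^ 1 := (pow_one q).symm
          _ ≤ q ^ 5 := Nat.pow_le_pow_right (by omega) (by norm_num))
    have a2 : q ^ 2 ≤ q ^ 4 := Nat.pow_le_pow_right (by omega) (by norm_num)
    omega
  omega

theorem arith_RAD3b (hq : 2 ≤ q) :
    q ^ 3 * ((q ^ 5 + 1) * (q ^ 2 + 1)) ≤ q ^ 7 * (2 * (q ^ 3 + 1)) := by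
  have e1 : q ^ 3 * ((q ^ 5 + 1) * (q ^ 2 + 1)) = q ^ 10 + q ^ 8 + q ^ 5 + q ^ 3 := by ring
  have e2 : q ^ 7 * (2 * (q ^ 3 + 1)) = q ^ 10 + q ^ 10 + 2 * q ^ 7 := by ring
  rw [e1, e2]
  have h1 : q ^ 8 ≤ q ^ 10 := Nat.pow_le_pow_right (by omega) (by norm_num)
  have h2 : q ^ 5 ≤ q ^ 7 := Nat.pow_le_pow_right (by omega) (by norm_num)
  have h3 : q ^ 3 ≤ q ^ 7 := Nat.pow_le_pow_right (by omega) (by norm_num)
  omega

/-- [oRAD3] -/
theorem wb3_rad (hF : Fintype.card F = q ^ 2) (D : AddSubgroup (Fin 3 → F))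
    (R : Subgroup (Cfsg.SU 3 F q))
    (hDq : ∀ c : F, c ^ q = c → ∀ w ∈ D, c • w ∈ D)
    (hD : ∀ w ∈ D, ∀ w' ∈ D, (Cfsg.hermForm 3 F q w w') ^ q = Cfsg.hermForm 3 F q w w')
    (hiso : (2 : F) = 0 → ∀ w ∈ D, Cfsg.hermForm 3 F q w w = 0)
    (hR : ∀ l ∈ R, ∀ w ∈ D, l.1.1 *ᵥ w ∈ D)
    (x : Fin 3 → F) (hx : x ∈ D) (hx0 : x ≠ 0) (hxD : ∀ y ∈ D, Cfsg.hermForm 3 F q x y = 0) :
    Nat.card D * NO q 5 ≤ q ^ 7 * R.index := by
  have hq := two_le_of_card_sq hF
  have : Finite (Cfsg.SU 3 F q) := Subtype.finite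
  have hDc := card_le_of_Fq hF D hD
  have hxx : H3 x x = 0 := hxD x hx
  have hle : R ≤ Pe q x := by
    intro l hl
    have h1 : H3 (l.1.1 *ᵥ x) (l.1.1 *ᵥ x) = 0 := by rw [SU_preserves]; exact hxx
    obtain ⟨c, hc⟩ := ti_pair hF x (l.1.1 *ᵥ x) hx0 hxx (hxD _ (hR l hl x hx)) h1
    refine mem_Pe_of_smul l c ?_ hc
    rintro rfl
    rw [zero_smul] at hc
    exact Cfsg.Agent.Lib.Helper5.su_mulVec_ne_zero l hx0 hc
  have hPe := index_Pe3 hF x hx0 hxx
  have hrel := Subgroup.relIndex_mul_index hle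
  have hN := NO_five_le hq
  have hR0 : R.index ≠ 0 := Subgroup.index_ne_zero_of_finite
  by_cases hcard : Nat.card D ≤ q ^ 2
  · have hidx : q ^ 3 + 1 ≤ R.index := by
      rw [← hPe]
      exact Nat.le_of_dvd (Nat.pos_of_ne_zero hR0) (Subgroup.index_dvd_of_le hle)
    calc Nat.card D * NO q 5 ≤ q ^ 2 * ((q ^ 5 + 1) * (q ^ 2 + 1)) := Nat.mul_le_mul hcard hN
      _ ≤ q ^ 7 * (q ^ 3 + 1) := arith_RAD3a hq
      _ ≤ q ^ 7 * R.index := Nat.mul_le_mul_left _ hidx
  · -- some `y ∈ D` is not in `F x`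
    obtain ⟨y, hy, hyx⟩ : ∃ y ∈ D, ∀ c : F, y ≠ c • x := by
      by_contra hcon
      push Not at hcon
      apply hcard
      choose! cf hcf using hcon
      have : Nat.card D ≤ Nat.card F := by
        refine Nat.card_le_card_of_injective (fun d : D => cf d.1) ?_
        intro d d' h
        apply Subtype.ext
        rw [hcf d.1 d.2, hcf d'.1 d'.2]
        exact congrArg (· • x) h
      rwa [Nat.card_eq_fintype_card (α := F), hF] at this
    have hxy : H3 x y = 0 := hxD y hy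
    have hyx0 : H3 y x = 0 := hermForm_eq_zero_comm hF hxy
    have hc : H3 y y ≠ 0 := by
      intro h
      obtain ⟨c, hc⟩ := ti_pair hF x y hx0 hxx hxy h
      exact hyx c hc
    -- hyperbolic partner of `x` in `y^⊥`
    obtain ⟨a₀, ha₀⟩ := exists_hermForm_ne_zero hF hx0
    set a₁ : Fin 3 → F := a₀ - (H3 a₀ y / H3 y y) • y with ha₁
    have ha₁x : H3 a₁ x ≠ 0 := by
      rw [ha₁, hermForm_sub_left, hermForm_smul_left, hyx0, mul_zero, sub_zero]
      exact ha₀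
    have ha₁y : H3 a₁ y = 0 := by
      rw [ha₁, hermForm_sub_left, hermForm_smul_left, div_mul_cancel₀ _ hc, sub_self]
    obtain ⟨l, hl⟩ := exists_isotropic_add_smul hF hxx ha₁x
    set f₀ := a₁ + l • x with hf₀
    have hfx₀ : H3 f₀ x ≠ 0 := by
      rw [hf₀, hermForm_add_left, hermForm_smul_left, hxx, mul_zero, add_zero]; exact ha₁x
    have hfy₀ : H3 f₀ y = 0 := by
      rw [hf₀, hermForm_add_left, hermForm_smul_left, hxy, mul_zero, add_zero]; exact ha₁y
    obtain ⟨f, hf, hfx, hfy⟩ : ∃ f, H3 f f = 0 ∧ H3 f x = 1 ∧ H3 f y = 0 :=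
      ⟨(H3 f₀ x)⁻¹ • f₀, by rw [hermForm_smul_left, hermForm_smul_right, hl]; simp,
        by rw [hermForm_smul_left, inv_mul_cancel₀ hfx₀],
        by rw [hermForm_smul_left, hfy₀, mul_zero]⟩
    have hxf : H3 x f = 1 := by rw [← hermForm_swap hF, hfx, one_pow]
    have hyf : H3 y f = 0 := hermForm_eq_zero_comm hF hfy
    obtain ⟨a, ha, hμ⟩ := exists_tor_par hF
    set g := torSU hF x f y a ha hxx hf hxf hyx0 hyf hc with hg
    have hgx : g.1.1 *ᵥ x = a • x := by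
      change torMat 3 q x f y a *ᵥ x = _
      rw [torMat_mulVec a hf hyx0 hyf, hxx, hxf, hxy]
      module
    have hgy : g.1.1 *ᵥ y = (a ^ q * a⁻¹) • y := by
      change torMat 3 q x f y a *ᵥ y = _
      rw [torMat_mulVec a hf hyx0 hyf, hyx0, hyf, div_mul_cancel₀ _ hc]
      module
    have hgPe : g ∈ Pe q x := mem_Pe_of_smul g a ha hgx
    have hgR : g ∉ R := by
      intro hgR
      have h1 := hR g hgR y hy
      rw [hgy] at h1
      have h2 := hD _ h1 y hy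
      have h3 := hD y hy y hy
      rw [hermForm_smul_left, mul_pow, h3] at h2
      exact hμ (mul_right_cancel₀ hc h2)
    have hrel2 : 2 ≤ R.relIndex (Pe q x) := by
      have h0 : R.relIndex (Pe q x) ≠ 0 := by
        intro h0
        rw [h0, zero_mul] at hrel
        exact hR0 hrel.symm
      have h1 : R.relIndex (Pe q x) ≠ 1 := by
        intro h1
        exact hgR (Subgroup.relIndex_eq_one.1 h1 hgPe)
      omega
    have hidx : 2 * (q ^ 3 + 1) ≤ R.index := by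
      rw [← hrel, hPe]
      exact Nat.mul_le_mul_right _ hrel2
    calc Nat.card D * NO q 5 ≤ q ^ 3 * ((q ^ 5 + 1) * (q ^ 2 + 1)) := Nat.mul_le_mul hDc hN
      _ ≤ q ^ 7 * (2 * (q ^ 3 + 1)) := arith_RAD3b hq
      _ ≤ q ^ 7 * R.index := Nat.mul_le_mul_left _ hidx

end Cfsg.Agent.Lib.Helper22.MinSU.O
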